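import Cfsg.Agent.M24Orbits.Families
import Cfsg.Agent.M24Orbits.Data.QuartQuart

/-! Kernel check of the orbit certificate `quartQuart`. -/

set_option autoImplicit false

namespace CfsgLib.M24Orbits.Data

theorem quartQuart_ok : certOK actF quartQuartGens quartQuartReps quartQuartCert = true := by
  decide +kernel

theorem quartQuart_len : quartQuartCert.flatten.length = 220 := by decide +kernel

theorem quartQuart_count :
    (List.range 5).map (certCount quartQuartCert) = [1, 12, 27, 72, 108] := by decide +kernel

end CfsgLib.M24Orbits.Data
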